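import Cfsg.Agent.Lib.Compute.Mult.ON.DataL
import Cfsg.Agent.Lib.Compute.Mult.ON.DefsU

/-!
# The table on `122760` points and its labels
-/

set_option autoImplicit false

namespace Cfsg.Agent.Lib.Compute.Mult.ON

open Cfsg.Agent.Lib.Compute.PermCert Cfsg.Agent.Lib.Compute.PeelCert Cfsg.Agent.Lib.Compute.CoverCert
open Cfsg.Agent.Lib.Compute.SchurLin (flp expV walkEnd)

noncomputable section

/-- The table. -/
def tL (i x : Nat) : Nat := Cfsg.Agent.Lib.Compute.ToddCoxeterPresented.TT.fld tBigL (nat_lit 17) (nat_lit 1023) (nat_lit 131071) (Nat.add (Nat.mul 14 i) x)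
/-- The labels. -/
def zL (i x : Nat) : Nat := Cfsg.Agent.Lib.Compute.ToddCoxeterPresented.TT.fld zBigL (nat_lit 2) (nat_lit 1023) (nat_lit 3) (Nat.add (Nat.mul 14 i) x)

/-- The check of the table at a point. -/
def tabOKL (i : Nat) : Bool :=
  allB (fun x => Nat.blt (tL i x) 122760 && Nat.beq (tL (tL i x) (flp x)) i &&
    Nat.beq (Nat.mod (Nat.add (zL (tL i x) (flp x)) (zL i x)) 3) 0) 14

/-- The check of a word at a point. -/
def rowOKL (k i : Nat) : Bool :=
  wfold tL zL (WW.getD k []) (fun i' s => Nat.beq i' i && Nat.beq (Nat.mod s 3) (WVL.getD k 0)) i 0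

end

end Cfsg.Agent.Lib.Compute.Mult.ON
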