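import Cfsg.Agent.Lib.Compute.Mult.ON.LocalD

/-!
# The local bounds for the kernel of a stem extension of the O'Nan group
-/

set_option autoImplicit false
set_option maxRecDepth 100000

namespace Cfsg.Agent.Lib.Compute.Mult.ON

open Cfsg
open Cfsg.Agent.Lib.Compute.ToddCoxeterCore Cfsg.Agent.Lib.Compute.ToddCoxeterPresented
  Cfsg.Agent.Lib.Compute.TCFast Cfsg.Agent.Lib.Compute.TCChain
open Cfsg.Agent.Lib.Compute.TC
open Cfsg.Agent.Lib.Compute.SchurLin (ltr map_wordEl_ltr)
open Cfsg.Agent.Lib.Compute.CoverCert (gF)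
open Cfsg.Agent.Lib.Compute.PresTransfer (gP)
open Cfsg.Agent.Lib.Compute.Mult.PLocal
open scoped commutatorElement

/-- the group -/
abbrev GO : Type := PresentedGroup ONT.RR

instance finO : Finite GO := Cfsg.Agent.S1699.finG

/-- the letters of the table -/
noncomputable abbrev elO : ℕ → GO := elG ONT.D ONT.RR

/-- the action -/
noncomputable abbrev phi : GO →* Equiv.Perm (Fin ONT.cfg.N) := phiG ONT.hR ONT.small ONT.big ONT.hgens

theorem el_eqO (e1 e2 : PE) (h : eqOn (ev0 ONT.cfg) e1 e2 (0 :: ONC.ls.map (·.b)) = true) :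
    e1.el elO = e2.el elO :=
  el_eq_of_base ONT.hR ONT.small ONT.big ONT.hgens Cfsg.Agent.S1699.inj.1 ONC.next0 ONC.ls ONC.fix0 ONC.chainOK
    Cfsg.Agent.S1699.leOrd e1 e2 h

theorem ev_phi (e : PE) (i : Fin ONT.cfg.N) : e.ev (ev0 ONT.cfg) true i = (phi (e.el elO) i : ℕ) := by
  have h := (PE.ev_spec (ev0_ok ONT.hR ONT.small ONT.big ONT.hgens) e i).1
  rw [h, PE.el_map phi elO e]

theorem el_ne (e : PE) (p : ℕ) (hp : p < 122760) (h : e.ev (ev0 ONT.cfg) true p ≠ p) : e.el elO ≠ 1 := by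
  intro h1
  apply h
  have h2 := ev_phi e ⟨p, by rw [N_eq]; exact hp⟩
  rw [h1, map_one] at h2
  exact h2

theorem stable_closure (S : Set GO) (L : List ℕ)
    (hS : ∀ s ∈ S, ∀ i : Fin ONT.cfg.N, (i : ℕ) ∈ L → (phi s i : ℕ) ∈ L) :
    ∀ b ∈ Subgroup.closure S, ∀ i : Fin ONT.cfg.N, (i : ℕ) ∈ L → (phi b i : ℕ) ∈ L := by
  intro b hb
  induction hb using Subgroup.closure_induction with
  | mem s hs => exact hS s hs
  | one =>
    intro i hi
    simpa using hi
  | mul x y _ _ hx hy =>
    intro i hi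
    rw [map_mul, Equiv.Perm.mul_apply]
    exact hx _ (hy i hi)
  | inv x _ hx =>
    intro i hi
    have hpow : ∀ k : ℕ, ∀ i : Fin ONT.cfg.N, (i : ℕ) ∈ L → (phi (x ^ k) i : ℕ) ∈ L := by
      intro k
      induction k with
      | zero =>
        intro i hi
        simpa using hi
      | succ k ih =>
        intro i hi
        rw [pow_succ, map_mul, Equiv.Perm.mul_apply]
        exact ih _ (hx i hi)
    have hpos := orderOf_pos x
    have h1 : x⁻¹ = x ^ (orderOf x - 1) := by
      apply inv_eq_of_mul_eq_one_left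
      rw [← pow_succ, Nat.sub_add_cancel hpos, pow_orderOf_eq_one]
    rw [h1]
    exact hpow _ i hi

theorem reach_pt (gens : List PE) (B : Subgroup GO) (hgB : ∀ e ∈ gens, e.el elO ∈ B) (w : List ℕ) :
    ∀ i : Fin ONT.cfg.N, ∃ b ∈ B, (phi b i : ℕ) = ptW gens w i := by
  induction w with
  | nil =>
    intro i
    exact ⟨1, one_mem _, by simp [ptW]⟩
  | cons j w ih =>
    intro i
    set e := gens.getD j .one with he
    have he1 : e.el elO ∈ B := by
      by_cases hj : j < gens.length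
      · rw [he, List.getD_eq_getElem _ _ hj]
        exact hgB _ (List.getElem_mem hj)
      · rw [he, List.getD_eq_default _ _ (by omega)]
        exact one_mem _
    obtain ⟨b, hb, hbe⟩ := ih (phi (e.el elO) i)
    refine ⟨b * e.el elO, mul_mem hb he1, ?_⟩
    rw [map_mul, Equiv.Perm.mul_apply, hbe]
    have h2 : ptW gens (j :: w) i = ptW gens w (e.ev (ev0 ONT.cfg) true i) := frc_eq _ _
    rw [h2, ev_phi]

theorem orbit_dvd (gens : List PE) (B : Subgroup GO) (S : Set GO)
    (hS : ∀ s ∈ S, ∃ e ∈ gens, e.el elO = s) (hBS : B ≤ Subgroup.closure S)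
    (hgB : ∀ e ∈ gens, e.el elO ∈ B) {q : ℕ} {W : List (List ℕ)} {L : List ℕ} (h : OrbOK gens q W L) :
    L.length ∣ Nat.card B := by
  classical
  obtain ⟨hnd, hlt, hq, hst, hW⟩ := h
  have hN := N_eq
  let qF : Fin ONT.cfg.N := ⟨q, by rw [hN]; exact hlt q hq⟩
  letI : MulAction B (Fin ONT.cfg.N) := MulAction.compHom (Fin ONT.cfg.N) (phi.comp B.subtype)
  have hstab := stable_closure S L (by
    intro s hs i hi
    obtain ⟨e, he, rfl⟩ := hS s hs
    rw [← ev_phi]
    exact hst e he i hi)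
  have horb : MulAction.orbit B qF = {i : Fin ONT.cfg.N | (i : ℕ) ∈ L} := by
    ext i
    constructor
    · rintro ⟨b, rfl⟩
      exact hstab _ (hBS b.2) qF hq
    · intro hi
      have hi' : (i : ℕ) ∈ L := hi
      rw [← hW, List.mem_map] at hi'
      obtain ⟨w, _, hw⟩ := hi'
      obtain ⟨b, hb, hbe⟩ := reach_pt gens B hgB w qF
      refine ⟨⟨b, hb⟩, Fin.ext ?_⟩
      exact hbe.trans hw
  have h1 := MulAction.index_stabilizer B qF
  have h2 : (MulAction.orbit B qF).ncard = L.length := by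
    rw [horb]
    have h3 : (Fin.val '' {i : Fin ONT.cfg.N | (i : ℕ) ∈ L}) = (L.toFinset : Set ℕ) := by
      ext p
      simp only [Set.mem_image, Set.mem_setOf_eq, List.coe_toFinset]
      constructor
      · rintro ⟨i, hi, rfl⟩
        exact hi
      · intro hp
        exact ⟨⟨p, by rw [hN]; exact hlt p hp⟩, hp, rfl⟩
    rw [← Set.ncard_image_of_injective _ Fin.val_injective, h3, Set.ncard_coe_finset,
      List.toFinset_card_of_nodup hnd]
  rw [h2] at h1
  rw [← h1]
  exact Subgroup.index_dvd_card _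

theorem card_GO : Nat.card GO = 460815505920 := Cfsg.Agent.S1699.inj.2

theorem idx_dvd (P : Subgroup GO) {m d : ℕ} (hd : d ∣ Nat.card P) (hm : m * d = Nat.card GO) : P.index ∣ m := by
  obtain ⟨k, hk⟩ := hd
  have h := Subgroup.card_mul_index P
  rw [hk, ← hm] at h
  have hpos : 0 < d := by
    rcases Nat.eq_zero_or_pos d with h0 | h0
    · exfalso
      rw [h0, mul_zero, card_GO] at hm
      omega
    · exact h0
  have h2 : d * (k * P.index) = d * m := by
    rw [← mul_assoc, h, mul_comm]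
  exact Dvd.intro_left k (Nat.eq_of_mul_eq_mul_left hpos h2)

/-! ### Elements -/

/-- an element -/
noncomputable abbrev x7 : GO := x7E.el elO
/-- an element -/
noncomputable abbrev y7 : GO := y7E.el elO
/-- an element -/
noncomputable abbrev z7 : GO := z7E.el elO
/-- the involution -/
noncomputable abbrev aO : GO := aE.el elO
/-- an element -/
noncomputable abbrev x1 : GO := x1E.el elO
/-- an element -/
noncomputable abbrev x2 : GO := x2E.el elO
/-- an element -/
noncomputable abbrev tauO : GO := tauE.el elO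
/-- an element -/
noncomputable abbrev x3 : GO := x3E.el elO
/-- an element -/
noncomputable abbrev x4 : GO := x4E.el elO

theorem x3_eq : x3 = tauO * x1 * tauO⁻¹ := rfl
theorem x4_eq : x4 = tauO * x2 * tauO⁻¹ := rfl
theorem z7_eq : z7 = ⁅x7, y7⁆ := rfl

theorem pw_one {e : PE} {n : ℕ} (h : eqOn (ev0 ONT.cfg) (e.pw n) .one (0 :: ONC.ls.map (·.b)) = true) :
    e.el elO ^ n = 1 := by
  have h1 := el_eqO _ _ h
  rw [PE.el_pw] at h1
  exact h1

theorem z7_ne : z7 ≠ 1 := el_ne z7E _ (by norm_num) m_z7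

theorem perfect_GO : commutator GO = ⊤ := by
  haveI : IsSimpleGroup GO := Cfsg.Agent.S1699.result.1
  refine Cfsg.Agent.Lib.Compute.Mult.perfect_of_simple ?_
  intro h
  exact z7_ne (commutatorElement_eq_one_iff_mul_comm.mpr (h.is_comm.comm _ _))

/-! ### The subgroup of order `10752` -/

/-- the images of the generators -/
noncomputable def fX : Fin 2 → GO := ![h1E.el elO, h2E.el elO]

/-- the images of the generators, as a function of a number -/
noncomputable def fN (j : ℕ) : GO := FreeGroup.lift fX (gF 2 j)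

theorem ltr_fN {x : ℕ} (hx : x < 4) : ltr fN x = (ltX x).el elO := by
  interval_cases x <;> simp [ltr, fN, gF, fX, ltX, PE.el]

theorem wP_el (w : List ℕ) (hw : ∀ x ∈ w, x < 4) : (wP ltX w).el elO = wordEl (ltr fN) w := by
  induction w with
  | nil => rfl
  | cons x u ih =>
    have h1 : (wP ltX (x :: u)).el elO = (wP ltX u).el elO * (ltX x).el elO := rfl
    rw [h1, ih (fun y hy => hw y (List.mem_cons_of_mem _ hy)), wordEl_cons, ltr_fN (hw x (List.mem_cons_self ..))]

/-- the map -/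
noncomputable def psi : Cfsg.Agent.Lib.Compute.Mult.ONH.XX →* GO :=
  PresentedGroup.toGroup (f := fX) (by
    intro r hr
    have hr' : r ∈ ONHT.rsL := hr
    have h1 := Cfsg.Agent.Lib.Compute.Mult.ONH.Lt_mem r hr'
    have h2 : toLetters Cfsg.Agent.Lib.Compute.Mult.ONH.lets r = Cfsg.Agent.Lib.Compute.Mult.ONH.Lt r := by
      show _ = toLetters _ (FreeGroup.freeGroupCongr Cfsg.Agent.Lib.Compute.Mult.ONH.eG r)
      congr 1
      have h0 : FreeGroup.freeGroupCongr Cfsg.Agent.Lib.Compute.Mult.ONH.eG = MulEquiv.refl _ := by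
        ext x
        simp [Cfsg.Agent.Lib.Compute.Mult.ONH.eG]
      rw [h0]
      rfl
    have h3 : Cfsg.Agent.Lib.Compute.Mult.ONH.Lt r ∈ Cfsg.Agent.Lib.Compute.Mult.ONH.WW :=
      List.mem_of_mem_drop (h2 ▸ h1)
    have h4 := Cfsg.Agent.Lib.Compute.Mult.ONH.hLt r
    have h5 := el_eqO _ _ (rels_X _ h3)
    rw [wP_el _ (fun x hx => Cfsg.Agent.Lib.Compute.Mult.ONH.lt_ok _ h3 x hx)] at h5
    have h6 := map_wordEl_ltr (FreeGroup.lift fX) (gF 2) (Cfsg.Agent.Lib.Compute.Mult.ONH.Lt r)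
    rw [h4] at h6
    rw [h6]
    exact h5)

theorem psi_g (j : ℕ) : psi (Cfsg.Agent.Lib.Compute.Mult.ONH.g j) = fN j := by
  by_cases hj : j < 2
  · interval_cases j <;> simp [psi, fN, gF, gP, Cfsg.Agent.Lib.Compute.Mult.ONH.g, Cfsg.Agent.Lib.Compute.Mult.ONH.eG]
  · simp [fN, gF, gP, Cfsg.Agent.Lib.Compute.Mult.ONH.g, hj]

theorem psi_word (w : List ℕ) (hw : ∀ x ∈ w, x < 4) :
    psi (wordEl (ltr Cfsg.Agent.Lib.Compute.Mult.ONH.g) w) = (wP ltX w).el elO := by
  rw [map_wordEl_ltr, wP_el _ hw]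
  congr 2
  funext j
  exact psi_g j

theorem h1_mem : h1E.el elO ∈ psi.range := ⟨PresentedGroup.of 0, by simp [psi, fX]⟩
theorem h2_mem : h2E.el elO ∈ psi.range := ⟨PresentedGroup.of 1, by simp [psi, fX]⟩

theorem range_le : psi.range ≤ Subgroup.closure {h1E.el elO, h2E.el elO} := by
  rw [MonoidHom.range_eq_map, ← PresentedGroup.closure_range_of, Subgroup.map_le_iff_le_comap, Subgroup.closure_le]
  rintro _ ⟨i, rfl⟩
  simp only [SetLike.mem_coe, Subgroup.mem_comap]
  fin_cases i
  · have h : psi (PresentedGroup.of 0) = h1E.el elO := by simp [psi, fX]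
    show psi (PresentedGroup.of 0) ∈ _
    rw [h]
    exact Subgroup.subset_closure (by simp)
  · have h : psi (PresentedGroup.of 1) = h2E.el elO := by simp [psi, fX]
    show psi (PresentedGroup.of 1) ∈ _
    rw [h]
    exact Subgroup.subset_closure (by simp)

theorem range_dvd : 10752 ∣ Nat.card psi.range := by
  have h2 : 512 ∣ Nat.card psi.range := by
    have := orbit_dvd [h1E, h2E] psi.range {h1E.el elO, h2E.el elO} (by
      rintro s (rfl | rfl)
      · exact ⟨h1E, by simp, rfl⟩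
      · exact ⟨h2E, by simp, rfl⟩) range_le (by
      intro e he
      simp only [List.mem_cons, List.not_mem_nil, or_false] at he
      rcases he with rfl | rfl
      · exact h1_mem
      · exact h2_mem) o_2
    rwa [len_2] at this
  have h3 : 3 ∣ Nat.card psi.range := by
    have h4 : orderOf (h2E.el elO) = 3 := by
      haveI : Fact (Nat.Prime 3) := ⟨by norm_num⟩
      exact orderOf_eq_prime (pw_one c_y3) (el_ne h2E _ (by norm_num) m_y3)
    have := Subgroup.orderOf_dvd_natCard psi.range h2_mem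
    rwa [h4] at this
  have h7 : 7 ∣ Nat.card psi.range := by
    have h4 : orderOf ((wP ltX w7X).el elO) = 7 := by
      haveI : Fact (Nat.Prime 7) := ⟨by norm_num⟩
      exact orderOf_eq_prime (pw_one c_s7) (el_ne _ _ (by norm_num) m_s7)
    have h5 : (wP ltX w7X).el elO ∈ psi.range :=
      ⟨_, psi_word w7X (by decide)⟩
    have := Subgroup.orderOf_dvd_natCard psi.range h5
    rwa [h4] at this
  have h21 : 3 * 7 ∣ Nat.card psi.range := Nat.Coprime.mul_dvd_of_dvd_of_dvd (by norm_num) h3 h7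
  exact Nat.Coprime.mul_dvd_of_dvd_of_dvd (m := 512) (n := 21) (by norm_num) h2 h21

theorem range_card : Nat.card psi.range = 10752 := by
  have h1 := Cfsg.Agent.Lib.Compute.Mult.ONH.card_X
  have h2 : Nat.card psi.range * Nat.card psi.ker = Nat.card Cfsg.Agent.Lib.Compute.Mult.ONH.XX := by
    have := Subgroup.card_mul_index psi.ker
    rw [Subgroup.index_ker, mul_comm] at this
    exact this
  rw [h1] at h2
  obtain ⟨k, hk⟩ := range_dvd
  rw [hk] at h2 ⊢
  have h3 : k * Nat.card psi.ker = 1 := by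
    have : 10752 * (k * Nat.card psi.ker) = 10752 * 1 := by
      rw [← mul_assoc, h2]
    exact Nat.eq_of_mul_eq_mul_left (by norm_num) this
  rw [Nat.eq_one_of_mul_eq_one_right h3]

theorem psi_inj : Function.Injective psi := by
  rw [← MonoidHom.ker_eq_bot_iff]
  have h1 := Cfsg.Agent.Lib.Compute.Mult.ONH.card_X
  have h2 : Nat.card psi.range * Nat.card psi.ker = Nat.card Cfsg.Agent.Lib.Compute.Mult.ONH.XX := by
    have := Subgroup.card_mul_index psi.ker
    rw [Subgroup.index_ker, mul_comm] at this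
    exact this
  rw [h1, range_card] at h2
  have h3 : 10752 * Nat.card psi.ker = 10752 * 1 := by rw [h2]
  exact Subgroup.eq_bot_of_card_eq _ (Nat.eq_of_mul_eq_mul_left (by norm_num) h3)

/-! ### The bounds -/

section Stem

variable {Γ' : Type} [Group Γ'] [Finite Γ'] {σ : Γ' →* GO} (hstem : IsStemExtension σ)

include hstem

theorem pow_two_part {a : Γ'} (ha : a ∈ σ.ker) : a ^ 42858585 = 1 := by
  refine local_two hstem perfect_GO psi psi_inj Cfsg.Agent.Lib.Compute.Mult.ONH.commutator_X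
    Cfsg.Agent.Lib.Compute.Mult.ONH.g Cfsg.Agent.Lib.Compute.Mult.ONH.uW Cfsg.Agent.Lib.Compute.Mult.ONH.vW
    (ccE.el elO) ?_ ?_ (fun Γ'' _ _ σ' h => Cfsg.Agent.Lib.Compute.Mult.ONH.upper_Y Γ'' σ' h) ?_ (by decide) ha
  · rw [psi_word _ (by decide)]
    exact pw_one c_U
  · rw [psi_word _ (by decide), psi_word _ (by decide)]
    exact el_eqO _ _ c_V
  · have h1 := Subgroup.card_mul_index psi.range
    rw [range_card, card_GO] at h1
    omega

theorem pow_cyc {p n : ℕ} (hp : p.Prime) {e : PE} (h : eqOn (ev0 ONT.cfg) (e.pw p) .one (0 :: ONC.ls.map (·.b)) = true)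
    {q : ℕ} (hq : q < 122760) (hm : e.ev (ev0 ONT.cfg) true q ≠ q) (hn : n * p = 460815505920) {a : Γ'} (ha : a ∈ σ.ker) :
    a ^ n = 1 := by
  haveI : Fact p.Prime := ⟨hp⟩
  exact cyclic_pow hstem perfect_GO (pw_one h) (el_ne e q hq hm) (by rw [hn, card_GO]) ha

theorem pow_seven {a : Γ'} (ha : a ∈ σ.ker) : a ^ (460815505920 / 343) = 1 := by
  have h := heis_pow hstem perfect_GO (q := 7) (by decide) (by norm_num) (x := x7) (y := y7) (s := aO) (pw_one c_x7)
    (pw_one c_y7) (pw_one c_z7) z7_ne (el_eqO _ _ c_xz) (el_eqO _ _ c_yz) (el_eqO _ _ c_ax) (el_eqO _ _ c_ay) ha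
  have hd : 343 ∣ Nat.card (Subgroup.closure {x7, y7} : Subgroup GO) := by
    have := orbit_dvd [x7E, y7E] (Subgroup.closure {x7, y7}) {x7, y7} (by
      rintro s (rfl | rfl)
      · exact ⟨x7E, by simp, rfl⟩
      · exact ⟨y7E, by simp, rfl⟩) le_rfl (by
      intro e he
      simp only [List.mem_cons, List.not_mem_nil, or_false] at he
      rcases he with rfl | rfl
      · exact Subgroup.subset_closure (by simp)
      · exact Subgroup.subset_closure (by simp)) o_7
    rwa [len_7] at this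
  obtain ⟨k, hk⟩ := idx_dvd _ hd (m := 460815505920 / 343) (by rw [card_GO])
  rw [hk, pow_mul, h, one_pow]

theorem exists_gen : ∃ w ∈ σ.ker, w ^ 3 = 1 ∧ ∀ a ∈ σ.ker, a ^ 27 = 1 → a ∈ Subgroup.zpowers w := by
  obtain ⟨w, hw, hw3, hall⟩ := elem_pow hstem perfect_GO (x1 := x1) (x2 := x2) (s := aO) (τ := tauO)
    (pw_one c_x1) (pw_one c_x2) (el_eqO _ _ c_12) (el_eqO _ _ c_13) (el_eqO _ _ c_14) (el_eqO _ _ c_23) (el_eqO _ _ c_24)
    (el_eqO _ _ c_s1) (el_eqO _ _ c_s2) (el_eqO _ _ c_s3) (el_eqO _ _ c_s4)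
  refine ⟨w, hw, hw3, ?_⟩
  intro a ha ha27
  have h1 := hall a ha
  set P : Subgroup GO := Subgroup.closure {x1, x2, tauO * x1 * tauO⁻¹, tauO * x2 * tauO⁻¹} with hP
  have hd : 81 ∣ Nat.card P := by
    have := orbit_dvd [x1E, x2E, x3E, x4E] P {x1, x2, tauO * x1 * tauO⁻¹, tauO * x2 * tauO⁻¹} (by
      rintro s (rfl | rfl | rfl | rfl)
      · exact ⟨x1E, by simp, rfl⟩
      · exact ⟨x2E, by simp, rfl⟩
      · exact ⟨x3E, by simp, rfl⟩
      · exact ⟨x4E, by simp, rfl⟩) le_rfl (by
      intro e he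
      simp only [List.mem_cons, List.not_mem_nil, or_false] at he
      rcases he with rfl | rfl | rfl | rfl
      · exact Subgroup.subset_closure (by simp)
      · exact Subgroup.subset_closure (by simp)
      · exact Subgroup.subset_closure (by
          show tauO * x1 * tauO⁻¹ ∈ _
          simp)
      · exact Subgroup.subset_closure (by
          show tauO * x2 * tauO⁻¹ ∈ _
          simp)) o_3
    rwa [len_3] at this
  have hi := idx_dvd P hd (m := 460815505920 / 81) (by rw [card_GO])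
  have hcop : Nat.Coprime 27 P.index :=
    Nat.Coprime.coprime_dvd_right hi (by norm_num)
  have hg : ((Nat.gcd 27 P.index : ℕ) : ℤ) = 27 * Nat.gcdA 27 P.index + P.index * Nat.gcdB 27 P.index :=
    Nat.gcd_eq_gcd_ab 27 P.index
  rw [hcop] at hg
  have h2 : a = (a ^ P.index) ^ (Nat.gcdB 27 P.index) := by
    calc a = a ^ (((1 : ℕ) : ℤ)) := by simp
      _ = a ^ ((27 : ℤ) * Nat.gcdA 27 P.index + P.index * Nat.gcdB 27 P.index) := by
        rw [show (((1 : ℕ) : ℤ)) = ((Nat.gcd 27 P.index : ℕ) : ℤ) by rw [hcop]]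
        rw [Nat.gcd_eq_gcd_ab 27 P.index]
        simp
      _ = (a ^ (27 : ℤ)) ^ (Nat.gcdA 27 P.index) * (a ^ (P.index : ℤ)) ^ (Nat.gcdB 27 P.index) := by
        rw [zpow_add, zpow_mul, zpow_mul]
      _ = (a ^ P.index) ^ (Nat.gcdB 27 P.index) := by
        have h3 : a ^ (27 : ℤ) = 1 := by
          have : a ^ ((27 : ℕ) : ℤ) = 1 := by rw [zpow_natCast, ha27]
          simpa using this
        rw [h3, one_zpow, one_mul, zpow_natCast]
  rw [h2]
  exact zpow_mem h1 _

theorem pow_27 {a : Γ'} (ha : a ∈ σ.ker) : a ^ 27 = 1 := by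
  have h2 := pow_two_part hstem ha
  have h7 := pow_seven hstem ha
  have h5 := pow_cyc hstem (p := 5) (n := 460815505920 / 5) (by norm_num) c_u5 (by norm_num) m_u5 (by norm_num) ha
  have h11 := pow_cyc hstem (p := 11) (n := 460815505920 / 11) (by norm_num) c_u11 (by norm_num) m_u11 (by norm_num) ha
  have h19 := pow_cyc hstem (p := 19) (n := 460815505920 / 19) (by norm_num) c_u19 (by norm_num) m_u19 (by norm_num) ha
  have h31 := pow_cyc hstem (p := 31) (n := 460815505920 / 31) (by norm_num) c_u31 (by norm_num) m_u31 (by norm_num) ha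
  have g1 := pow_gcd_eq_one.mpr ⟨h2, h7⟩
  have g2 := pow_gcd_eq_one.mpr ⟨g1, h5⟩
  have g3 := pow_gcd_eq_one.mpr ⟨g2, h11⟩
  have g4 := pow_gcd_eq_one.mpr ⟨g3, h19⟩
  have g5 := pow_gcd_eq_one.mpr ⟨g4, h31⟩
  have e : Nat.gcd (Nat.gcd (Nat.gcd (Nat.gcd (Nat.gcd 42858585 (460815505920 / 343)) (460815505920 / 5)) (460815505920 / 11))
      (460815505920 / 19)) (460815505920 / 31) = 27 := by norm_num
  rwa [e] at g5

/-- All stem extensions of the O'Nan group have a kernel which is a quotient of a cyclic group of order three. -/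
theorem upper : ∃ π : Multiplicative (ZMod 3) →* σ.ker, Function.Surjective π := by
  obtain ⟨w, hw, hw3, hall⟩ := exists_gen hstem
  refine Cfsg.Agent.Lib.Compute.StemQuot.exists_surj_cyclic (B := σ.ker) (a := 3) (fun p q => Subtype.ext ?_)
    (x := ⟨w, hw⟩) (Subtype.ext hw3) ?_
  · exact (Subgroup.mem_center_iff.mp (hstem.2.1 p.2) (q : Γ')).symm
  · intro S hS
    rw [eq_top_iff]
    rintro b -
    obtain ⟨k, hk⟩ := Subgroup.mem_zpowers_iff.mp (hall b.1 b.2 (pow_27 hstem b.2))
    have h1 : b = (⟨w, hw⟩ : σ.ker) ^ k := Subtype.ext (by simpa using hk.symm)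
    rw [h1]
    exact zpow_mem hS k

end Stem

end Cfsg.Agent.Lib.Compute.Mult.ON
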