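import Cfsg.Agent.Lib.Compute.Mult.ON.DefsL

/-!
# The checks of the normalized words on `122760` points
-/

set_option autoImplicit false
set_option maxRecDepth 100000

namespace Cfsg.Agent.Lib.Compute.Mult.ON

open Cfsg.Agent.Lib.Compute.PermCert Cfsg.Agent.Lib.Compute.PeelCert Cfsg.Agent.Lib.Compute.CoverCert
open Cfsg.Agent.Lib.Compute.SchurLin (flp expV unitV)

theorem rowE_ok : ∀ k < 7, rowOKL k 0 = true := by decide +kernel

end Cfsg.Agent.Lib.Compute.Mult.ON
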