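import Cfsg.Agent.Lib.Compute.Mult.ON.DefsL

/-!
# The checks of the words on the table on `122760` points, part 0
-/

set_option autoImplicit false
set_option maxRecDepth 100000

namespace Cfsg.Agent.Lib.Compute.Mult.ON

open Cfsg.Agent.Lib.Compute.PermCert Cfsg.Agent.Lib.Compute.PeelCert Cfsg.Agent.Lib.Compute.CoverCert
open Cfsg.Agent.Lib.Compute.SchurLin (flp expV unitV)

theorem row7R0 : allB (fun r => rowOKL 7 (Nat.add 0 r)) 100000 = true := by decide +kernel
theorem row7R1 : allB (fun r => rowOKL 7 (Nat.add 100000 r)) 22760 = true := by decide +kernel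

theorem row7_all : allB (rowOKL 7) 122760 = true := by
  rw [allB_iff]
  intro u hu
  by_cases h0 : u < 100000
  · exact Cfsg.Agent.Lib.Compute.Mult.blk row7R0 (by omega) (by omega)
  exact Cfsg.Agent.Lib.Compute.Mult.blk row7R1 (by omega) (by omega)

theorem row8R0 : allB (fun r => rowOKL 8 (Nat.add 0 r)) 33333 = true := by decide +kernel
theorem row8R1 : allB (fun r => rowOKL 8 (Nat.add 33333 r)) 33333 = true := by decide +kernel
theorem row8R2 : allB (fun r => rowOKL 8 (Nat.add 66666 r)) 33333 = true := by decide +kernel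
theorem row8R3 : allB (fun r => rowOKL 8 (Nat.add 99999 r)) 22761 = true := by decide +kernel

theorem row8_all : allB (rowOKL 8) 122760 = true := by
  rw [allB_iff]
  intro u hu
  by_cases h0 : u < 33333
  · exact Cfsg.Agent.Lib.Compute.Mult.blk row8R0 (by omega) (by omega)
  by_cases h1 : u < 66666
  · exact Cfsg.Agent.Lib.Compute.Mult.blk row8R1 (by omega) (by omega)
  by_cases h2 : u < 99999
  · exact Cfsg.Agent.Lib.Compute.Mult.blk row8R2 (by omega) (by omega)
  exact Cfsg.Agent.Lib.Compute.Mult.blk row8R3 (by omega) (by omega)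

theorem row9R0 : allB (fun r => rowOKL 9 (Nat.add 0 r)) 50000 = true := by decide +kernel
theorem row9R1 : allB (fun r => rowOKL 9 (Nat.add 50000 r)) 50000 = true := by decide +kernel
theorem row9R2 : allB (fun r => rowOKL 9 (Nat.add 100000 r)) 22760 = true := by decide +kernel

theorem row9_all : allB (rowOKL 9) 122760 = true := by
  rw [allB_iff]
  intro u hu
  by_cases h0 : u < 50000
  · exact Cfsg.Agent.Lib.Compute.Mult.blk row9R0 (by omega) (by omega)
  by_cases h1 : u < 100000
  · exact Cfsg.Agent.Lib.Compute.Mult.blk row9R1 (by omega) (by omega)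
  exact Cfsg.Agent.Lib.Compute.Mult.blk row9R2 (by omega) (by omega)

theorem row10R0 : allB (fun r => rowOKL 10 (Nat.add 0 r)) 50000 = true := by decide +kernel
theorem row10R1 : allB (fun r => rowOKL 10 (Nat.add 50000 r)) 50000 = true := by decide +kernel
theorem row10R2 : allB (fun r => rowOKL 10 (Nat.add 100000 r)) 22760 = true := by decide +kernel

theorem row10_all : allB (rowOKL 10) 122760 = true := by
  rw [allB_iff]
  intro u hu
  by_cases h0 : u < 50000
  · exact Cfsg.Agent.Lib.Compute.Mult.blk row10R0 (by omega) (by omega)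
  by_cases h1 : u < 100000
  · exact Cfsg.Agent.Lib.Compute.Mult.blk row10R1 (by omega) (by omega)
  exact Cfsg.Agent.Lib.Compute.Mult.blk row10R2 (by omega) (by omega)

theorem row11R0 : allB (fun r => rowOKL 11 (Nat.add 0 r)) 50000 = true := by decide +kernel
theorem row11R1 : allB (fun r => rowOKL 11 (Nat.add 50000 r)) 50000 = true := by decide +kernel
theorem row11R2 : allB (fun r => rowOKL 11 (Nat.add 100000 r)) 22760 = true := by decide +kernel

theorem row11_all : allB (rowOKL 11) 122760 = true := by
  rw [allB_iff]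
  intro u hu
  by_cases h0 : u < 50000
  · exact Cfsg.Agent.Lib.Compute.Mult.blk row11R0 (by omega) (by omega)
  by_cases h1 : u < 100000
  · exact Cfsg.Agent.Lib.Compute.Mult.blk row11R1 (by omega) (by omega)
  exact Cfsg.Agent.Lib.Compute.Mult.blk row11R2 (by omega) (by omega)


end Cfsg.Agent.Lib.Compute.Mult.ON
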