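import Cfsg.Agent.Lib.Compute.Mult.ON.DefsL

/-!
# The checks of the words on the table on `122760` points, part 1
-/

set_option autoImplicit false
set_option maxRecDepth 100000

namespace Cfsg.Agent.Lib.Compute.Mult.ON

open Cfsg.Agent.Lib.Compute.PermCert Cfsg.Agent.Lib.Compute.PeelCert Cfsg.Agent.Lib.Compute.CoverCert
open Cfsg.Agent.Lib.Compute.SchurLin (flp expV unitV)

theorem row12R0 : allB (fun r => rowOKL 12 (Nat.add 0 r)) 50000 = true := by decide +kernel
theorem row12R1 : allB (fun r => rowOKL 12 (Nat.add 50000 r)) 50000 = true := by decide +kernel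
theorem row12R2 : allB (fun r => rowOKL 12 (Nat.add 100000 r)) 22760 = true := by decide +kernel

theorem row12_all : allB (rowOKL 12) 122760 = true := by
  rw [allB_iff]
  intro u hu
  by_cases h0 : u < 50000
  · exact Cfsg.Agent.Lib.Compute.Mult.blk row12R0 (by omega) (by omega)
  by_cases h1 : u < 100000
  · exact Cfsg.Agent.Lib.Compute.Mult.blk row12R1 (by omega) (by omega)
  exact Cfsg.Agent.Lib.Compute.Mult.blk row12R2 (by omega) (by omega)

theorem row13R0 : allB (fun r => rowOKL 13 (Nat.add 0 r)) 33333 = true := by decide +kernel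
theorem row13R1 : allB (fun r => rowOKL 13 (Nat.add 33333 r)) 33333 = true := by decide +kernel
theorem row13R2 : allB (fun r => rowOKL 13 (Nat.add 66666 r)) 33333 = true := by decide +kernel
theorem row13R3 : allB (fun r => rowOKL 13 (Nat.add 99999 r)) 22761 = true := by decide +kernel

theorem row13_all : allB (rowOKL 13) 122760 = true := by
  rw [allB_iff]
  intro u hu
  by_cases h0 : u < 33333
  · exact Cfsg.Agent.Lib.Compute.Mult.blk row13R0 (by omega) (by omega)
  by_cases h1 : u < 66666
  · exact Cfsg.Agent.Lib.Compute.Mult.blk row13R1 (by omega) (by omega)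
  by_cases h2 : u < 99999
  · exact Cfsg.Agent.Lib.Compute.Mult.blk row13R2 (by omega) (by omega)
  exact Cfsg.Agent.Lib.Compute.Mult.blk row13R3 (by omega) (by omega)

theorem row14R0 : allB (fun r => rowOKL 14 (Nat.add 0 r)) 100000 = true := by decide +kernel
theorem row14R1 : allB (fun r => rowOKL 14 (Nat.add 100000 r)) 22760 = true := by decide +kernel

theorem row14_all : allB (rowOKL 14) 122760 = true := by
  rw [allB_iff]
  intro u hu
  by_cases h0 : u < 100000
  · exact Cfsg.Agent.Lib.Compute.Mult.blk row14R0 (by omega) (by omega)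
  exact Cfsg.Agent.Lib.Compute.Mult.blk row14R1 (by omega) (by omega)

theorem row15R0 : allB (fun r => rowOKL 15 (Nat.add 0 r)) 33333 = true := by decide +kernel
theorem row15R1 : allB (fun r => rowOKL 15 (Nat.add 33333 r)) 33333 = true := by decide +kernel
theorem row15R2 : allB (fun r => rowOKL 15 (Nat.add 66666 r)) 33333 = true := by decide +kernel
theorem row15R3 : allB (fun r => rowOKL 15 (Nat.add 99999 r)) 22761 = true := by decide +kernel

theorem row15_all : allB (rowOKL 15) 122760 = true := by
  rw [allB_iff]
  intro u hu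
  by_cases h0 : u < 33333
  · exact Cfsg.Agent.Lib.Compute.Mult.blk row15R0 (by omega) (by omega)
  by_cases h1 : u < 66666
  · exact Cfsg.Agent.Lib.Compute.Mult.blk row15R1 (by omega) (by omega)
  by_cases h2 : u < 99999
  · exact Cfsg.Agent.Lib.Compute.Mult.blk row15R2 (by omega) (by omega)
  exact Cfsg.Agent.Lib.Compute.Mult.blk row15R3 (by omega) (by omega)


end Cfsg.Agent.Lib.Compute.Mult.ON
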