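import Cfsg.Agent.Lib.Compute.Mult.ON.RowL7
import Cfsg.Agent.Lib.Compute.Mult.ON.DefsL

/-!
# The checks of the words on the table on `122760` points, part 10
-/

set_option autoImplicit false
set_option maxRecDepth 100000

namespace Cfsg.Agent.Lib.Compute.Mult.ON

open Cfsg.Agent.Lib.Compute.PermCert Cfsg.Agent.Lib.Compute.PeelCert Cfsg.Agent.Lib.Compute.CoverCert
open Cfsg.Agent.Lib.Compute.SchurLin (flp expV unitV)

theorem row41R0 : allB (fun r => rowOKL 41 (Nat.add 0 r)) 33333 = true := by decide +kernel
theorem row41R1 : allB (fun r => rowOKL 41 (Nat.add 33333 r)) 33333 = true := by decide +kernel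
theorem row41R2 : allB (fun r => rowOKL 41 (Nat.add 66666 r)) 33333 = true := by decide +kernel
theorem row41R3 : allB (fun r => rowOKL 41 (Nat.add 99999 r)) 22761 = true := by decide +kernel

theorem row41_all : allB (rowOKL 41) 122760 = true := by
  rw [allB_iff]
  intro u hu
  by_cases h0 : u < 33333
  · exact Cfsg.Agent.Lib.Compute.Mult.blk row41R0 (by omega) (by omega)
  by_cases h1 : u < 66666
  · exact Cfsg.Agent.Lib.Compute.Mult.blk row41R1 (by omega) (by omega)
  by_cases h2 : u < 99999
  · exact Cfsg.Agent.Lib.Compute.Mult.blk row41R2 (by omega) (by omega)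
  exact Cfsg.Agent.Lib.Compute.Mult.blk row41R3 (by omega) (by omega)

theorem row42R0 : allB (fun r => rowOKL 42 (Nat.add 0 r)) 100000 = true := by decide +kernel
theorem row42R1 : allB (fun r => rowOKL 42 (Nat.add 100000 r)) 22760 = true := by decide +kernel

theorem row42_all : allB (rowOKL 42) 122760 = true := by
  rw [allB_iff]
  intro u hu
  by_cases h0 : u < 100000
  · exact Cfsg.Agent.Lib.Compute.Mult.blk row42R0 (by omega) (by omega)
  exact Cfsg.Agent.Lib.Compute.Mult.blk row42R1 (by omega) (by omega)

theorem row43R0 : allB (fun r => rowOKL 43 (Nat.add 0 r)) 50000 = true := by decide +kernel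
theorem row43R1 : allB (fun r => rowOKL 43 (Nat.add 50000 r)) 50000 = true := by decide +kernel
theorem row43R2 : allB (fun r => rowOKL 43 (Nat.add 100000 r)) 22760 = true := by decide +kernel

theorem row43_all : allB (rowOKL 43) 122760 = true := by
  rw [allB_iff]
  intro u hu
  by_cases h0 : u < 50000
  · exact Cfsg.Agent.Lib.Compute.Mult.blk row43R0 (by omega) (by omega)
  by_cases h1 : u < 100000
  · exact Cfsg.Agent.Lib.Compute.Mult.blk row43R1 (by omega) (by omega)
  exact Cfsg.Agent.Lib.Compute.Mult.blk row43R2 (by omega) (by omega)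


end Cfsg.Agent.Lib.Compute.Mult.ON
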