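import Cfsg.Agent.Lib.Compute.Mult.ON.RowL8
import Cfsg.Agent.Lib.Compute.Mult.ON.DefsL

/-!
# The checks of the words on the table on `122760` points, part 11
-/

set_option autoImplicit false
set_option maxRecDepth 100000

namespace Cfsg.Agent.Lib.Compute.Mult.ON

open Cfsg.Agent.Lib.Compute.PermCert Cfsg.Agent.Lib.Compute.PeelCert Cfsg.Agent.Lib.Compute.CoverCert
open Cfsg.Agent.Lib.Compute.SchurLin (flp expV unitV)

theorem row44R0 : allB (fun r => rowOKL 44 (Nat.add 0 r)) 20000 = true := by decide +kernel
theorem row44R1 : allB (fun r => rowOKL 44 (Nat.add 20000 r)) 20000 = true := by decide +kernel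
theorem row44R2 : allB (fun r => rowOKL 44 (Nat.add 40000 r)) 20000 = true := by decide +kernel
theorem row44R3 : allB (fun r => rowOKL 44 (Nat.add 60000 r)) 20000 = true := by decide +kernel
theorem row44R4 : allB (fun r => rowOKL 44 (Nat.add 80000 r)) 20000 = true := by decide +kernel
theorem row44R5 : allB (fun r => rowOKL 44 (Nat.add 100000 r)) 20000 = true := by decide +kernel
theorem row44R6 : allB (fun r => rowOKL 44 (Nat.add 120000 r)) 2760 = true := by decide +kernel

theorem row44_all : allB (rowOKL 44) 122760 = true := by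
  rw [allB_iff]
  intro u hu
  by_cases h0 : u < 20000
  · exact Cfsg.Agent.Lib.Compute.Mult.blk row44R0 (by omega) (by omega)
  by_cases h1 : u < 40000
  · exact Cfsg.Agent.Lib.Compute.Mult.blk row44R1 (by omega) (by omega)
  by_cases h2 : u < 60000
  · exact Cfsg.Agent.Lib.Compute.Mult.blk row44R2 (by omega) (by omega)
  by_cases h3 : u < 80000
  · exact Cfsg.Agent.Lib.Compute.Mult.blk row44R3 (by omega) (by omega)
  by_cases h4 : u < 100000
  · exact Cfsg.Agent.Lib.Compute.Mult.blk row44R4 (by omega) (by omega)
  by_cases h5 : u < 120000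
  · exact Cfsg.Agent.Lib.Compute.Mult.blk row44R5 (by omega) (by omega)
  exact Cfsg.Agent.Lib.Compute.Mult.blk row44R6 (by omega) (by omega)

theorem row45R0 : allB (fun r => rowOKL 45 (Nat.add 0 r)) 20000 = true := by decide +kernel
theorem row45R1 : allB (fun r => rowOKL 45 (Nat.add 20000 r)) 20000 = true := by decide +kernel
theorem row45R2 : allB (fun r => rowOKL 45 (Nat.add 40000 r)) 20000 = true := by decide +kernel
theorem row45R3 : allB (fun r => rowOKL 45 (Nat.add 60000 r)) 20000 = true := by decide +kernel
theorem row45R4 : allB (fun r => rowOKL 45 (Nat.add 80000 r)) 20000 = true := by decide +kernel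
theorem row45R5 : allB (fun r => rowOKL 45 (Nat.add 100000 r)) 20000 = true := by decide +kernel
theorem row45R6 : allB (fun r => rowOKL 45 (Nat.add 120000 r)) 2760 = true := by decide +kernel

theorem row45_all : allB (rowOKL 45) 122760 = true := by
  rw [allB_iff]
  intro u hu
  by_cases h0 : u < 20000
  · exact Cfsg.Agent.Lib.Compute.Mult.blk row45R0 (by omega) (by omega)
  by_cases h1 : u < 40000
  · exact Cfsg.Agent.Lib.Compute.Mult.blk row45R1 (by omega) (by omega)
  by_cases h2 : u < 60000
  · exact Cfsg.Agent.Lib.Compute.Mult.blk row45R2 (by omega) (by omega)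
  by_cases h3 : u < 80000
  · exact Cfsg.Agent.Lib.Compute.Mult.blk row45R3 (by omega) (by omega)
  by_cases h4 : u < 100000
  · exact Cfsg.Agent.Lib.Compute.Mult.blk row45R4 (by omega) (by omega)
  by_cases h5 : u < 120000
  · exact Cfsg.Agent.Lib.Compute.Mult.blk row45R5 (by omega) (by omega)
  exact Cfsg.Agent.Lib.Compute.Mult.blk row45R6 (by omega) (by omega)


end Cfsg.Agent.Lib.Compute.Mult.ON
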