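import Cfsg.Agent.Lib.Compute.Mult.ON.RowL10
import Cfsg.Agent.Lib.Compute.Mult.ON.DefsL

/-!
# The checks of the words on the table on `122760` points, part 13
-/

set_option autoImplicit false
set_option maxRecDepth 100000

namespace Cfsg.Agent.Lib.Compute.Mult.ON

open Cfsg.Agent.Lib.Compute.PermCert Cfsg.Agent.Lib.Compute.PeelCert Cfsg.Agent.Lib.Compute.CoverCert
open Cfsg.Agent.Lib.Compute.SchurLin (flp expV unitV)

theorem row47R0 : allB (fun r => rowOKL 47 (Nat.add 0 r)) 10000 = true := by decide +kernel
theorem row47R1 : allB (fun r => rowOKL 47 (Nat.add 10000 r)) 10000 = true := by decide +kernel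
theorem row47R2 : allB (fun r => rowOKL 47 (Nat.add 20000 r)) 10000 = true := by decide +kernel
theorem row47R3 : allB (fun r => rowOKL 47 (Nat.add 30000 r)) 10000 = true := by decide +kernel
theorem row47R4 : allB (fun r => rowOKL 47 (Nat.add 40000 r)) 10000 = true := by decide +kernel
theorem row47R5 : allB (fun r => rowOKL 47 (Nat.add 50000 r)) 10000 = true := by decide +kernel
theorem row47R6 : allB (fun r => rowOKL 47 (Nat.add 60000 r)) 10000 = true := by decide +kernel
theorem row47R7 : allB (fun r => rowOKL 47 (Nat.add 70000 r)) 10000 = true := by decide +kernel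
theorem row47R8 : allB (fun r => rowOKL 47 (Nat.add 80000 r)) 10000 = true := by decide +kernel
theorem row47R9 : allB (fun r => rowOKL 47 (Nat.add 90000 r)) 10000 = true := by decide +kernel
theorem row47R10 : allB (fun r => rowOKL 47 (Nat.add 100000 r)) 10000 = true := by decide +kernel
theorem row47R11 : allB (fun r => rowOKL 47 (Nat.add 110000 r)) 10000 = true := by decide +kernel
theorem row47R12 : allB (fun r => rowOKL 47 (Nat.add 120000 r)) 2760 = true := by decide +kernel

theorem row47_all : allB (rowOKL 47) 122760 = true := by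
  rw [allB_iff]
  intro u hu
  by_cases h0 : u < 10000
  · exact Cfsg.Agent.Lib.Compute.Mult.blk row47R0 (by omega) (by omega)
  by_cases h1 : u < 20000
  · exact Cfsg.Agent.Lib.Compute.Mult.blk row47R1 (by omega) (by omega)
  by_cases h2 : u < 30000
  · exact Cfsg.Agent.Lib.Compute.Mult.blk row47R2 (by omega) (by omega)
  by_cases h3 : u < 40000
  · exact Cfsg.Agent.Lib.Compute.Mult.blk row47R3 (by omega) (by omega)
  by_cases h4 : u < 50000
  · exact Cfsg.Agent.Lib.Compute.Mult.blk row47R4 (by omega) (by omega)
  by_cases h5 : u < 60000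
  · exact Cfsg.Agent.Lib.Compute.Mult.blk row47R5 (by omega) (by omega)
  by_cases h6 : u < 70000
  · exact Cfsg.Agent.Lib.Compute.Mult.blk row47R6 (by omega) (by omega)
  by_cases h7 : u < 80000
  · exact Cfsg.Agent.Lib.Compute.Mult.blk row47R7 (by omega) (by omega)
  by_cases h8 : u < 90000
  · exact Cfsg.Agent.Lib.Compute.Mult.blk row47R8 (by omega) (by omega)
  by_cases h9 : u < 100000
  · exact Cfsg.Agent.Lib.Compute.Mult.blk row47R9 (by omega) (by omega)
  by_cases h10 : u < 110000
  · exact Cfsg.Agent.Lib.Compute.Mult.blk row47R10 (by omega) (by omega)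
  by_cases h11 : u < 120000
  · exact Cfsg.Agent.Lib.Compute.Mult.blk row47R11 (by omega) (by omega)
  exact Cfsg.Agent.Lib.Compute.Mult.blk row47R12 (by omega) (by omega)


end Cfsg.Agent.Lib.Compute.Mult.ON
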