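import Cfsg.Agent.Lib.Compute.Mult.ON.RowL11
import Cfsg.Agent.Lib.Compute.Mult.ON.DefsL

/-!
# The checks of the words on the table on `122760` points, part 14
-/

set_option autoImplicit false
set_option maxRecDepth 100000

namespace Cfsg.Agent.Lib.Compute.Mult.ON

open Cfsg.Agent.Lib.Compute.PermCert Cfsg.Agent.Lib.Compute.PeelCert Cfsg.Agent.Lib.Compute.CoverCert
open Cfsg.Agent.Lib.Compute.SchurLin (flp expV unitV)

theorem row48R0 : allB (fun r => rowOKL 48 (Nat.add 0 r)) 18181 = true := by decide +kernel
theorem row48R1 : allB (fun r => rowOKL 48 (Nat.add 18181 r)) 18181 = true := by decide +kernel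
theorem row48R2 : allB (fun r => rowOKL 48 (Nat.add 36362 r)) 18181 = true := by decide +kernel
theorem row48R3 : allB (fun r => rowOKL 48 (Nat.add 54543 r)) 18181 = true := by decide +kernel
theorem row48R4 : allB (fun r => rowOKL 48 (Nat.add 72724 r)) 18181 = true := by decide +kernel
theorem row48R5 : allB (fun r => rowOKL 48 (Nat.add 90905 r)) 18181 = true := by decide +kernel
theorem row48R6 : allB (fun r => rowOKL 48 (Nat.add 109086 r)) 13674 = true := by decide +kernel

theorem row48_all : allB (rowOKL 48) 122760 = true := by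
  rw [allB_iff]
  intro u hu
  by_cases h0 : u < 18181
  · exact Cfsg.Agent.Lib.Compute.Mult.blk row48R0 (by omega) (by omega)
  by_cases h1 : u < 36362
  · exact Cfsg.Agent.Lib.Compute.Mult.blk row48R1 (by omega) (by omega)
  by_cases h2 : u < 54543
  · exact Cfsg.Agent.Lib.Compute.Mult.blk row48R2 (by omega) (by omega)
  by_cases h3 : u < 72724
  · exact Cfsg.Agent.Lib.Compute.Mult.blk row48R3 (by omega) (by omega)
  by_cases h4 : u < 90905
  · exact Cfsg.Agent.Lib.Compute.Mult.blk row48R4 (by omega) (by omega)
  by_cases h5 : u < 109086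
  · exact Cfsg.Agent.Lib.Compute.Mult.blk row48R5 (by omega) (by omega)
  exact Cfsg.Agent.Lib.Compute.Mult.blk row48R6 (by omega) (by omega)


end Cfsg.Agent.Lib.Compute.Mult.ON
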