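import Cfsg.Agent.Lib.Compute.Mult.ON.DefsL

/-!
# The checks of the words on the table on `122760` points, part 2
-/

set_option autoImplicit false
set_option maxRecDepth 100000

namespace Cfsg.Agent.Lib.Compute.Mult.ON

open Cfsg.Agent.Lib.Compute.PermCert Cfsg.Agent.Lib.Compute.PeelCert Cfsg.Agent.Lib.Compute.CoverCert
open Cfsg.Agent.Lib.Compute.SchurLin (flp expV unitV)

theorem row16R0 : allB (fun r => rowOKL 16 (Nat.add 0 r)) 50000 = true := by decide +kernel
theorem row16R1 : allB (fun r => rowOKL 16 (Nat.add 50000 r)) 50000 = true := by decide +kernel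
theorem row16R2 : allB (fun r => rowOKL 16 (Nat.add 100000 r)) 22760 = true := by decide +kernel

theorem row16_all : allB (rowOKL 16) 122760 = true := by
  rw [allB_iff]
  intro u hu
  by_cases h0 : u < 50000
  · exact Cfsg.Agent.Lib.Compute.Mult.blk row16R0 (by omega) (by omega)
  by_cases h1 : u < 100000
  · exact Cfsg.Agent.Lib.Compute.Mult.blk row16R1 (by omega) (by omega)
  exact Cfsg.Agent.Lib.Compute.Mult.blk row16R2 (by omega) (by omega)

theorem row17R0 : allB (fun r => rowOKL 17 (Nat.add 0 r)) 50000 = true := by decide +kernel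
theorem row17R1 : allB (fun r => rowOKL 17 (Nat.add 50000 r)) 50000 = true := by decide +kernel
theorem row17R2 : allB (fun r => rowOKL 17 (Nat.add 100000 r)) 22760 = true := by decide +kernel

theorem row17_all : allB (rowOKL 17) 122760 = true := by
  rw [allB_iff]
  intro u hu
  by_cases h0 : u < 50000
  · exact Cfsg.Agent.Lib.Compute.Mult.blk row17R0 (by omega) (by omega)
  by_cases h1 : u < 100000
  · exact Cfsg.Agent.Lib.Compute.Mult.blk row17R1 (by omega) (by omega)
  exact Cfsg.Agent.Lib.Compute.Mult.blk row17R2 (by omega) (by omega)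

theorem row18R0 : allB (fun r => rowOKL 18 (Nat.add 0 r)) 50000 = true := by decide +kernel
theorem row18R1 : allB (fun r => rowOKL 18 (Nat.add 50000 r)) 50000 = true := by decide +kernel
theorem row18R2 : allB (fun r => rowOKL 18 (Nat.add 100000 r)) 22760 = true := by decide +kernel

theorem row18_all : allB (rowOKL 18) 122760 = true := by
  rw [allB_iff]
  intro u hu
  by_cases h0 : u < 50000
  · exact Cfsg.Agent.Lib.Compute.Mult.blk row18R0 (by omega) (by omega)
  by_cases h1 : u < 100000
  · exact Cfsg.Agent.Lib.Compute.Mult.blk row18R1 (by omega) (by omega)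
  exact Cfsg.Agent.Lib.Compute.Mult.blk row18R2 (by omega) (by omega)

theorem row19R0 : allB (fun r => rowOKL 19 (Nat.add 0 r)) 50000 = true := by decide +kernel
theorem row19R1 : allB (fun r => rowOKL 19 (Nat.add 50000 r)) 50000 = true := by decide +kernel
theorem row19R2 : allB (fun r => rowOKL 19 (Nat.add 100000 r)) 22760 = true := by decide +kernel

theorem row19_all : allB (rowOKL 19) 122760 = true := by
  rw [allB_iff]
  intro u hu
  by_cases h0 : u < 50000
  · exact Cfsg.Agent.Lib.Compute.Mult.blk row19R0 (by omega) (by omega)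
  by_cases h1 : u < 100000
  · exact Cfsg.Agent.Lib.Compute.Mult.blk row19R1 (by omega) (by omega)
  exact Cfsg.Agent.Lib.Compute.Mult.blk row19R2 (by omega) (by omega)


end Cfsg.Agent.Lib.Compute.Mult.ON
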