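import Cfsg.Agent.Lib.Compute.Mult.ON.RowL0
import Cfsg.Agent.Lib.Compute.Mult.ON.DefsL

/-!
# The checks of the words on the table on `122760` points, part 3
-/

set_option autoImplicit false
set_option maxRecDepth 100000

namespace Cfsg.Agent.Lib.Compute.Mult.ON

open Cfsg.Agent.Lib.Compute.PermCert Cfsg.Agent.Lib.Compute.PeelCert Cfsg.Agent.Lib.Compute.CoverCert
open Cfsg.Agent.Lib.Compute.SchurLin (flp expV unitV)

theorem row20R0 : allB (fun r => rowOKL 20 (Nat.add 0 r)) 33333 = true := by decide +kernel
theorem row20R1 : allB (fun r => rowOKL 20 (Nat.add 33333 r)) 33333 = true := by decide +kernel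
theorem row20R2 : allB (fun r => rowOKL 20 (Nat.add 66666 r)) 33333 = true := by decide +kernel
theorem row20R3 : allB (fun r => rowOKL 20 (Nat.add 99999 r)) 22761 = true := by decide +kernel

theorem row20_all : allB (rowOKL 20) 122760 = true := by
  rw [allB_iff]
  intro u hu
  by_cases h0 : u < 33333
  · exact Cfsg.Agent.Lib.Compute.Mult.blk row20R0 (by omega) (by omega)
  by_cases h1 : u < 66666
  · exact Cfsg.Agent.Lib.Compute.Mult.blk row20R1 (by omega) (by omega)
  by_cases h2 : u < 99999
  · exact Cfsg.Agent.Lib.Compute.Mult.blk row20R2 (by omega) (by omega)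
  exact Cfsg.Agent.Lib.Compute.Mult.blk row20R3 (by omega) (by omega)

theorem row21R0 : allB (fun r => rowOKL 21 (Nat.add 0 r)) 100000 = true := by decide +kernel
theorem row21R1 : allB (fun r => rowOKL 21 (Nat.add 100000 r)) 22760 = true := by decide +kernel

theorem row21_all : allB (rowOKL 21) 122760 = true := by
  rw [allB_iff]
  intro u hu
  by_cases h0 : u < 100000
  · exact Cfsg.Agent.Lib.Compute.Mult.blk row21R0 (by omega) (by omega)
  exact Cfsg.Agent.Lib.Compute.Mult.blk row21R1 (by omega) (by omega)


end Cfsg.Agent.Lib.Compute.Mult.ON
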