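import Cfsg.Agent.Lib.Compute.Mult.ON.RowL3
import Cfsg.Agent.Lib.Compute.Mult.ON.DefsL

/-!
# The checks of the words on the table on `122760` points, part 6
-/

set_option autoImplicit false
set_option maxRecDepth 100000

namespace Cfsg.Agent.Lib.Compute.Mult.ON

open Cfsg.Agent.Lib.Compute.PermCert Cfsg.Agent.Lib.Compute.PeelCert Cfsg.Agent.Lib.Compute.CoverCert
open Cfsg.Agent.Lib.Compute.SchurLin (flp expV unitV)

theorem row27R0 : allB (fun r => rowOKL 27 (Nat.add 0 r)) 12500 = true := by decide +kernel
theorem row27R1 : allB (fun r => rowOKL 27 (Nat.add 12500 r)) 12500 = true := by decide +kernel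
theorem row27R2 : allB (fun r => rowOKL 27 (Nat.add 25000 r)) 12500 = true := by decide +kernel
theorem row27R3 : allB (fun r => rowOKL 27 (Nat.add 37500 r)) 12500 = true := by decide +kernel
theorem row27R4 : allB (fun r => rowOKL 27 (Nat.add 50000 r)) 12500 = true := by decide +kernel
theorem row27R5 : allB (fun r => rowOKL 27 (Nat.add 62500 r)) 12500 = true := by decide +kernel
theorem row27R6 : allB (fun r => rowOKL 27 (Nat.add 75000 r)) 12500 = true := by decide +kernel
theorem row27R7 : allB (fun r => rowOKL 27 (Nat.add 87500 r)) 12500 = true := by decide +kernel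
theorem row27R8 : allB (fun r => rowOKL 27 (Nat.add 100000 r)) 12500 = true := by decide +kernel
theorem row27R9 : allB (fun r => rowOKL 27 (Nat.add 112500 r)) 10260 = true := by decide +kernel

theorem row27_all : allB (rowOKL 27) 122760 = true := by
  rw [allB_iff]
  intro u hu
  by_cases h0 : u < 12500
  · exact Cfsg.Agent.Lib.Compute.Mult.blk row27R0 (by omega) (by omega)
  by_cases h1 : u < 25000
  · exact Cfsg.Agent.Lib.Compute.Mult.blk row27R1 (by omega) (by omega)
  by_cases h2 : u < 37500
  · exact Cfsg.Agent.Lib.Compute.Mult.blk row27R2 (by omega) (by omega)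
  by_cases h3 : u < 50000
  · exact Cfsg.Agent.Lib.Compute.Mult.blk row27R3 (by omega) (by omega)
  by_cases h4 : u < 62500
  · exact Cfsg.Agent.Lib.Compute.Mult.blk row27R4 (by omega) (by omega)
  by_cases h5 : u < 75000
  · exact Cfsg.Agent.Lib.Compute.Mult.blk row27R5 (by omega) (by omega)
  by_cases h6 : u < 87500
  · exact Cfsg.Agent.Lib.Compute.Mult.blk row27R6 (by omega) (by omega)
  by_cases h7 : u < 100000
  · exact Cfsg.Agent.Lib.Compute.Mult.blk row27R7 (by omega) (by omega)
  by_cases h8 : u < 112500
  · exact Cfsg.Agent.Lib.Compute.Mult.blk row27R8 (by omega) (by omega)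
  exact Cfsg.Agent.Lib.Compute.Mult.blk row27R9 (by omega) (by omega)

theorem row28R0 : allB (fun r => rowOKL 28 (Nat.add 0 r)) 100000 = true := by decide +kernel
theorem row28R1 : allB (fun r => rowOKL 28 (Nat.add 100000 r)) 22760 = true := by decide +kernel

theorem row28_all : allB (rowOKL 28) 122760 = true := by
  rw [allB_iff]
  intro u hu
  by_cases h0 : u < 100000
  · exact Cfsg.Agent.Lib.Compute.Mult.blk row28R0 (by omega) (by omega)
  exact Cfsg.Agent.Lib.Compute.Mult.blk row28R1 (by omega) (by omega)


end Cfsg.Agent.Lib.Compute.Mult.ON
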