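import Cfsg.Agent.Lib.Compute.Mult.ON.RowL6
import Cfsg.Agent.Lib.Compute.Mult.ON.DefsL

/-!
# The checks of the words on the table on `122760` points, part 9
-/

set_option autoImplicit false
set_option maxRecDepth 100000

namespace Cfsg.Agent.Lib.Compute.Mult.ON

open Cfsg.Agent.Lib.Compute.PermCert Cfsg.Agent.Lib.Compute.PeelCert Cfsg.Agent.Lib.Compute.CoverCert
open Cfsg.Agent.Lib.Compute.SchurLin (flp expV unitV)

theorem row37R0 : allB (fun r => rowOKL 37 (Nat.add 0 r)) 50000 = true := by decide +kernel
theorem row37R1 : allB (fun r => rowOKL 37 (Nat.add 50000 r)) 50000 = true := by decide +kernel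
theorem row37R2 : allB (fun r => rowOKL 37 (Nat.add 100000 r)) 22760 = true := by decide +kernel

theorem row37_all : allB (rowOKL 37) 122760 = true := by
  rw [allB_iff]
  intro u hu
  by_cases h0 : u < 50000
  · exact Cfsg.Agent.Lib.Compute.Mult.blk row37R0 (by omega) (by omega)
  by_cases h1 : u < 100000
  · exact Cfsg.Agent.Lib.Compute.Mult.blk row37R1 (by omega) (by omega)
  exact Cfsg.Agent.Lib.Compute.Mult.blk row37R2 (by omega) (by omega)

theorem row38R0 : allB (fun r => rowOKL 38 (Nat.add 0 r)) 50000 = true := by decide +kernel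
theorem row38R1 : allB (fun r => rowOKL 38 (Nat.add 50000 r)) 50000 = true := by decide +kernel
theorem row38R2 : allB (fun r => rowOKL 38 (Nat.add 100000 r)) 22760 = true := by decide +kernel

theorem row38_all : allB (rowOKL 38) 122760 = true := by
  rw [allB_iff]
  intro u hu
  by_cases h0 : u < 50000
  · exact Cfsg.Agent.Lib.Compute.Mult.blk row38R0 (by omega) (by omega)
  by_cases h1 : u < 100000
  · exact Cfsg.Agent.Lib.Compute.Mult.blk row38R1 (by omega) (by omega)
  exact Cfsg.Agent.Lib.Compute.Mult.blk row38R2 (by omega) (by omega)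

theorem row39R0 : allB (fun r => rowOKL 39 (Nat.add 0 r)) 50000 = true := by decide +kernel
theorem row39R1 : allB (fun r => rowOKL 39 (Nat.add 50000 r)) 50000 = true := by decide +kernel
theorem row39R2 : allB (fun r => rowOKL 39 (Nat.add 100000 r)) 22760 = true := by decide +kernel

theorem row39_all : allB (rowOKL 39) 122760 = true := by
  rw [allB_iff]
  intro u hu
  by_cases h0 : u < 50000
  · exact Cfsg.Agent.Lib.Compute.Mult.blk row39R0 (by omega) (by omega)
  by_cases h1 : u < 100000
  · exact Cfsg.Agent.Lib.Compute.Mult.blk row39R1 (by omega) (by omega)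
  exact Cfsg.Agent.Lib.Compute.Mult.blk row39R2 (by omega) (by omega)

theorem row40R0 : allB (fun r => rowOKL 40 (Nat.add 0 r)) 50000 = true := by decide +kernel
theorem row40R1 : allB (fun r => rowOKL 40 (Nat.add 50000 r)) 50000 = true := by decide +kernel
theorem row40R2 : allB (fun r => rowOKL 40 (Nat.add 100000 r)) 22760 = true := by decide +kernel

theorem row40_all : allB (rowOKL 40) 122760 = true := by
  rw [allB_iff]
  intro u hu
  by_cases h0 : u < 50000
  · exact Cfsg.Agent.Lib.Compute.Mult.blk row40R0 (by omega) (by omega)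
  by_cases h1 : u < 100000
  · exact Cfsg.Agent.Lib.Compute.Mult.blk row40R1 (by omega) (by omega)
  exact Cfsg.Agent.Lib.Compute.Mult.blk row40R2 (by omega) (by omega)


end Cfsg.Agent.Lib.Compute.Mult.ON
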