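import Cfsg.Agent.Lib.Compute.Mult.ON.Local
import Cfsg.Agent.Lib.Compute.Mult.ON.TabL
import Cfsg.Agent.Lib.Compute.Mult.ON.RowEL
import Cfsg.Agent.Lib.Compute.Mult.ON.RowL0
import Cfsg.Agent.Lib.Compute.Mult.ON.RowL1
import Cfsg.Agent.Lib.Compute.Mult.ON.RowL2
import Cfsg.Agent.Lib.Compute.Mult.ON.RowL3
import Cfsg.Agent.Lib.Compute.Mult.ON.RowL4
import Cfsg.Agent.Lib.Compute.Mult.ON.RowL5
import Cfsg.Agent.Lib.Compute.Mult.ON.RowL6
import Cfsg.Agent.Lib.Compute.Mult.ON.RowL7
import Cfsg.Agent.Lib.Compute.Mult.ON.RowL8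
import Cfsg.Agent.Lib.Compute.Mult.ON.RowL9
import Cfsg.Agent.Lib.Compute.Mult.ON.RowL10
import Cfsg.Agent.Lib.Compute.Mult.ON.RowL11
import Cfsg.Agent.Lib.Compute.Mult.ON.RowL12
import Cfsg.Agent.Lib.Compute.Mult.ON.RowL13
import Cfsg.Agent.Lib.Compute.Mult.ON.RowL14
import Cfsg.Agent.Lib.Compute.Mult.ON.RowL15

/-!
# The cover of the O'Nan group

The edge labels on the table of the cosets of a subgroup of index `122760` give a permutation group on `3 * 122760` points.
-/

set_option autoImplicit false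
set_option maxRecDepth 100000

namespace Cfsg.Agent.Lib.Compute.Mult.ON

open Cfsg
open Cfsg.Agent.Lib.Compute.PermCert Cfsg.Agent.Lib.Compute.PeelCert Cfsg.Agent.Lib.Compute.CoverCert
open Cfsg.Agent.Lib.Compute.SchurLin Cfsg.Agent.Lib.Compute.SchurU Cfsg.Agent.Lib.Compute.PresTransfer
open Cfsg.Agent.Lib.Compute.ToddCoxeterCore (wordEl wordEl_nil wordEl_cons wordEl_append)
open Cfsg.Agent.Lib.Compute.ToddCoxeterPresented (toLetters letterOf coxList mem_coxR elG)
open Cfsg.Agent.Lib.Compute.TCChain (PE eqOn ev0)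
open Cfsg.Agent.Lib.Compute.TC

/-- The relators. -/
abbrev RS : Set (FreeGroup Cfsg.Spor.ON.Gen) := ONT.RR

/-- The generators, numbered. -/
def eG : Fin 7 ≃ Cfsg.Spor.ON.Gen where
  toFun := ![.g, .a, .b, .c, .d, .e, .f]
  invFun := fun x => match x with
    | .g => 0 | .a => 1 | .b => 2 | .c => 3 | .d => 4 | .e => 5 | .f => 6
  left_inv := by decide
  right_inv := by intro x; cases x <;> rfl

/-- The letters. -/
def lets : List (Cfsg.Spor.ON.Gen × Bool) :=
  [(.g, true), (.g, false), (.a, true), (.a, false), (.b, true), (.b, false), (.c, true), (.c, false),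
   (.d, true), (.d, false), (.e, true), (.e, false), (.f, true), (.f, false)]

theorem hcode : ∀ (j : Fin 7) (b : Bool), letterOf lets (eG j, b) = 2 * j.val + (if b then 0 else 1) := by
  decide

theorem hgens : ∀ a, (a, true) ∈ lets := by
  intro a
  cases a <;> decide

/-- The generators in the group. -/
noncomputable abbrev g : ℕ → Cfsg.Spor.ON := gP eG RS

/-- The letters of a relator. -/
def Lt : FreeGroup (Fin 7) → List ℕ := LtP eG lets

theorem hLt (r : FreeGroup (Fin 7)) : wordEl (ltr (gF 7)) (Lt r) = r := hLtP eG lets hcode r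

theorem hLtlt (r : FreeGroup (Fin 7)) : ∀ x ∈ Lt r, x < 2 * 7 := hLtPlt eG lets (by decide) hgens r

theorem Lt_mem : ∀ r ∈ coxList Cfsg.Spor.ON.edges ++ Cfsg.Spor.ON.extra, toLetters lets r ∈ WW.drop 7 := by decide +kernel

instance simple_G : IsSimpleGroup Cfsg.Spor.ON := Cfsg.Agent.S1699.result.1

theorem len_WW : WW.length = 50 := by decide +kernel
theorem exv_ok : ∀ k < 7, ∀ j < 7, expV ((WW.getD k []).dropLast) j = 0 := by decide +kernel
theorem exa_ok : ∀ k < 7, WW.getD k [] = (WW.getD k []).dropLast ++ [2 * k + 1] := by decide +kernel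
theorem lt_ok : ∀ w ∈ WW, ∀ x ∈ w, x < 2 * 7 := by decide +kernel

theorem hletW : ∀ k, ∀ x ∈ WW.getD k [], x < 2 * 7 := by
  intro k x hx
  rcases Cfsg.Agent.Lib.Compute.SchurU.getD_mem_or (W := WW) k with h | h
  · exact lt_ok _ h x hx
  · rw [h] at hx
    simp at hx

/-- The letters in the group, as expressions. -/
noncomputable def ltC : ℕ → PE := fun x =>
  List.getD [.lt 0, .lt 1, .lt 2, .inv (.lt 2), .lt 3, .inv (.lt 3), .lt 4, .inv (.lt 4), .lt 5, .inv (.lt 5),
    .lt 6, .inv (.lt 6), .lt 7, .inv (.lt 7)] x .one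

theorem el_g0 : elO 0 = g 0 := rfl
theorem el_g1 : elO 1 = (g 0)⁻¹ := rfl
theorem el_g2 : elO 2 = g 1 := rfl
theorem el_g3 : elO 3 = g 2 := rfl
theorem el_g4 : elO 4 = g 3 := rfl
theorem el_g5 : elO 5 = g 4 := rfl
theorem el_g6 : elO 6 = g 5 := rfl
theorem el_g7 : elO 7 = g 6 := rfl

theorem ltr_C {x : ℕ} (hx : x < 14) : (ltC x).el elO = ltr g x := by
  interval_cases x
  · exact el_g0
  · exact el_g1
  · exact el_g2
  · exact congrArg (·⁻¹) el_g2
  · exact el_g3
  · exact congrArg (·⁻¹) el_g3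
  · exact el_g4
  · exact congrArg (·⁻¹) el_g4
  · exact el_g5
  · exact congrArg (·⁻¹) el_g5
  · exact el_g6
  · exact congrArg (·⁻¹) el_g6
  · exact el_g7
  · exact congrArg (·⁻¹) el_g7

theorem wC_el (w : List ℕ) (hw : ∀ x ∈ w, x < 14) : (wP ltC w).el elO = wordEl (ltr g) w := by
  induction w with
  | nil => rfl
  | cons x u ih =>
    have h1 : (wP ltC (x :: u)).el elO = (wP ltC u).el elO * (ltC x).el elO := rfl
    rw [h1, ih (fun y hy => hw y (List.mem_cons_of_mem _ hy)), wordEl_cons, ltr_C (hw x (List.mem_cons_self ..))]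

theorem rels_W : ∀ w ∈ WW, eqOn (ev0 ONT.cfg) (wP ltC w) .one (0 :: ONC.ls.map (·.b)) = true := by decide +kernel

theorem hrelW (k : ℕ) : wordEl (ltr g) (WW.getD k []) = 1 := by
  rcases Cfsg.Agent.Lib.Compute.SchurU.getD_mem_or (W := WW) k with h | h
  · rw [← wC_el _ (fun x hx => lt_ok _ h x hx)]
    exact el_eqO _ _ (rels_W _ h)
  · rw [h]
    rfl

/-- The group of labels. -/
abbrev AA : Type := Multiplicative (ZMod 3)

/-- The edge labels. -/
noncomputable def zA (i x : ℕ) : AA := Multiplicative.ofAdd ((zL i x : ℕ) : ZMod 3)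

theorem walk_eq (i : ℕ) (w' : List ℕ) :
    walkProd tL zA i w' = Multiplicative.ofAdd ((wsumN tL zL i w' : ℕ) : ZMod 3) :=
  map_walkProd_cast (MonoidHom.id AA) (fun _ _ => rfl) i w'

theorem tabL_spec {i : ℕ} (hi : i < 122760) {x : ℕ} (hx : x < 14) :
    tL i x < 122760 ∧ tL (tL i x) (flp x) = i ∧ Nat.mod (Nat.add (zL (tL i x) (flp x)) (zL i x)) 3 = 0 := by
  have h := (allB_iff _ _).1 ((allB_iff _ _).1 tabL_all i hi) x hx
  simp only [Bool.and_eq_true, Nat.beq_eq, Nat.blt_eq] at h
  exact ⟨h.1.1, h.1.2, h.2⟩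

theorem vTab : VTab tL zA 7 122760 where
  hlt := fun i hi x hx => (tabL_spec hi hx).1
  hflp := fun i hi x hx => (tabL_spec hi hx).2.1
  hz := fun i hi x hx => by
    have h2 := (tabL_spec hi hx).2.2
    have h3 : ((zL (tL i x) (flp x) + zL i x : ℕ) : ZMod 3) = 0 :=
      (ZMod.natCast_eq_zero_iff _ _).2 (Nat.dvd_of_mod_eq_zero h2)
    rw [Nat.cast_add] at h3
    show Multiplicative.ofAdd ((zL (tL i x) (flp x) : ℕ) : ZMod 3) = (Multiplicative.ofAdd ((zL i x : ℕ) : ZMod 3))⁻¹
    rw [eq_neg_of_add_eq_zero_left h3]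
    rfl

/-- The value of a word. -/
noncomputable def wvA (k : ℕ) : AA := Multiplicative.ofAdd (((WVL.getD k 0 : ℕ)) : ZMod 3)

theorem row_spec {k i : ℕ} (h : rowOKL k i = true) :
    walkEnd tL i (WW.getD k []) = i ∧ walkProd tL zA i (WW.getD k []) = wvA k := by
  simp only [rowOKL, wfold_spec, Bool.and_eq_true, Nat.beq_eq, Nat.zero_add] at h
  refine ⟨h.1, ?_⟩
  rw [walk_eq, wvA, ← h.2]
  show _ = Multiplicative.ofAdd ((wsumN tL zL i (WW.getD k []) % 3 : ℕ) : ZMod 3)
  rw [ZMod.natCast_mod]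

theorem rows_all {k : ℕ} (hk : 7 ≤ k) (hk2 : k < 50) : ∀ i < 122760, rowOKL k i = true := by
  intro i hi
  have h : allB (rowOKL k) 122760 = true := by
    interval_cases k
    · exact row7_all
    · exact row8_all
    · exact row9_all
    · exact row10_all
    · exact row11_all
    · exact row12_all
    · exact row13_all
    · exact row14_all
    · exact row15_all
    · exact row16_all
    · exact row17_all
    · exact row18_all
    · exact row19_all
    · exact row20_all
    · exact row21_all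
    · exact row22_all
    · exact row23_all
    · exact row24_all
    · exact row25_all
    · exact row26_all
    · exact row27_all
    · exact row28_all
    · exact row29_all
    · exact row30_all
    · exact row31_all
    · exact row32_all
    · exact row33_all
    · exact row34_all
    · exact row35_all
    · exact row36_all
    · exact row37_all
    · exact row38_all
    · exact row39_all
    · exact row40_all
    · exact row41_all
    · exact row42_all
    · exact row43_all
    · exact row44_all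
    · exact row45_all
    · exact row46_all
    · exact row47_all
    · exact row48_all
    · exact row49_all
  exact (allB_iff _ _).1 h i hi

theorem hmoveL : ∃ j < 7, ∃ i < 122760, tL i (2 * j) ≠ i :=
  ⟨0, by norm_num, 0, by norm_num, by decide +kernel⟩

theorem wvA_11 : wvA 11 = Multiplicative.ofAdd 1 := by decide +kernel
theorem wvA_low : ∀ k < 7, wvA k = 1 := by decide +kernel

theorem AA_gen : ∀ x : ZMod 3, (Multiplicative.ofAdd x : AA) = (Multiplicative.ofAdd 1 : AA) ^ x.val := by
  decide +kernel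

theorem hUgen (S : Subgroup AA) (h : ∀ w' ∈ [WW.getD 11 []], walkProd tL zA 0 w' ∈ S) : S = ⊤ := by
  have h1 : (Multiplicative.ofAdd 1 : AA) ∈ S := by
    have := h (WW.getD 11 []) (by simp)
    rwa [(row_spec (rows_all (k := 11) (by norm_num) (by norm_num) 0 (by norm_num))).2, wvA_11] at this
  rw [eq_top_iff]
  rintro a -
  have := AA_gen a
  show (Multiplicative.ofAdd a : AA) ∈ S
  rw [this]
  exact pow_mem h1 _

theorem cover : ∃ (Γ : Type) (_ : Group Γ) (_ : Finite Γ) (σ : Γ →* Cfsg.Spor.ON),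
    IsStemExtension σ ∧ Nonempty (σ.ker ≃* AA) := by
  refine cover_exists (g := g) (fP eG RS) (fP_surj eG RS) (fP_of eG RS) (RP eG RS) (fP_ker eG RS) vTab (by norm_num)
    Lt hLt hLtlt ?_ hmoveL
    (fun j => (WW.getD j []).dropLast) (fun j _ x hx => hletW j x (List.mem_of_mem_dropLast hx)) exv_ok ?_ ?_
    [WW.getD 11 []] ?_ hUgen
  · intro r hr
    have h1 : (FreeGroup.freeGroupCongr eG r) ∈ coxList Cfsg.Spor.ON.edges ++ Cfsg.Spor.ON.extra := (mem_coxR _ _ _).1 hr
    have h2 := Lt_mem _ h1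
    obtain ⟨k, hk, e⟩ := List.mem_iff_getElem.1 h2
    have hk' : k < 43 := by
      rw [List.length_drop, len_WW] at hk
      exact hk
    have h3 : Lt r = WW.getD (k + 7) [] := by
      show toLetters lets (FreeGroup.freeGroupCongr eG r) = _
      rw [← e, List.getElem_drop, List.getD_eq_getElem _ _ (by rw [len_WW]; omega)]
      congr 1
      omega
    refine ⟨wvA (k + 7), fun i hi => ?_⟩
    rw [h3]
    exact row_spec (rows_all (by omega) (by omega) i hi)
  · intro j hj
    rw [← exa_ok j hj]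
    exact hrelW j
  · intro j hj
    rw [← exa_ok j hj, (row_spec (rowE_ok j hj)).2]
    exact wvA_low j hj
  · intro w' hw
    simp only [List.mem_cons, List.not_mem_nil, or_false] at hw
    rcases hw with rfl
    exact ⟨hletW _, hrelW _⟩

end Cfsg.Agent.Lib.Compute.Mult.ON
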